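import Cfsg.Agent.H85.Ore.EEight

/-!
# Two fixed classes for `E_7(q)`, `E_8(q)`, `q ≥ 3` (S4173)
-/

set_option autoImplicit false
set_option linter.unusedSectionVars false

namespace Cfsg.Agent.H85.TC

open CoxeterSystem Cfsg.Agent.ChevalleyStructure.CoxeterGeom Cfsg.Agent.Tits.Roots Cfsg.Agent.Tits.Core
  Cfsg.Agent.Nodes.Reps Cfsg.Agent.Nodes.BNOf Cfsg.Agent.Nodes.RGDLib Cfsg.Agent.Nodes.Bruhat
  Cfsg.Agent.Nodes.OppDec Cfsg.Agent.Nodes.LeviDec Cfsg.Agent.Nodes.KindChev Cfsg.Agent.Nodes.ChevCls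
  Cfsg.Agent.OddHalf.NI.ModelChev
  Cfsg.Agent.H162.GaussDec Cfsg.Agent.H162.GaussLevi Cfsg.Agent.H162.GaussSL
  Cfsg.Agent.H162.GaussMain Cfsg.Agent.H162.GaussPQ Cfsg.Agent.H162.GaussExc
open Cfsg.Lie Cfsg.Agent.ChevalleyStructure Cfsg.Agent.ChevalleyStructure.Elts
  Cfsg.Agent.ChevalleyStructure.RootVec Cfsg.Agent.ChevalleyStructure.NPerm
  Cfsg.Agent.ChevalleyStructure.CoxeterGeomTypes Cfsg.Agent.Nodes.RGDChev Cfsg.Agent.KFacts.RgdChevCoord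
open Cfsg.Agent.H928.Ore.Frame (NF LP)
open Cfsg.Agent.H85.Ore

universe u

/-- two conjugacy classes whose product contains all nonidentity elements -/
def Tw (G : Type*) [Group G] : Prop :=
  ∃ a b : G, ∀ g : G, g ≠ 1 → ∃ u v : G, g = (u * a * u⁻¹) * (v * b * v⁻¹)

section

variable {D : ChevalleyDatum} {l : ℕ} {M : CoxeterMatrix (Fin l)} (hp : IsType D l M) {K : Type u} [Field K] [Finite K]
  (hl : 0 < l) (hG : IsSimpleGroup ↥(D.group K) ∧ ¬ IsMulCommutative ↥(D.group K))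
  (hM : ∀ J : Finset (Fin l), J = ∅ ∨ J = Finset.univ ∨ ∃ a ∈ J, ∃ b, b ∉ J ∧ M a b ≠ 2)

include hl hG hM in
/-- pairs of the Levi subgroup in two fixed classes -/
theorem tw_of_pairs {J : Set (Fin l)} {a b : ↥(D.group K)}
    (hb : ∀ v ∈ UNJ M.toCoxeterSystem hp.isCartan (XX D l K) J, ∀ w ∈ UJ M.toCoxeterSystem hp.isCartan (XX D l K) J,
      ∃ c₁ c₂, v * w = c₁ * c₂ ∧ LP M.toCoxeterSystem hp.isCartan (TT D K) (XX D l K) J c₁ c₂ ∧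
        (∃ x, c₁ = x * a * x⁻¹) ∧ ∃ y, c₂ = y * b * y⁻¹) :
    Tw ↥(D.group K) := by
  refine ⟨a, b, fun g hg1 => ?_⟩
  obtain ⟨p, hpc⟩ := CharP.exists K
  have := Fintype.ofFinite K
  have : Fact p.Prime := ⟨(CharP.char_is_prime_or_zero K p).resolve_right (CharP.char_ne_zero_of_finite K p)⟩
  have := finite_W hp M.toCoxeterSystem
  have : Nonempty (Fin l) := ⟨⟨0, hl⟩⟩
  have hg : g ∉ (RGD.B M.toCoxeterSystem hp.isCartan (TT D K) (XX D l K)).normalCore := fun h =>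
    hg1 (one_of_core hp hl hG.1 h)
  obtain ⟨c₁, c₂, x, y, ⟨⟨x', rfl⟩, y', rfl⟩, e⟩ := Cfsg.Agent.H928.Ore.Frame.pair (rgd (K := K) hp M.toCoxeterSystem p)
    (G1_eq_top hp _) (coord hp) (Cfsg.Agent.Nodes.ChevChart.irr_of hM) (J := J)
    (Pr := fun c₁ c₂ => (∃ x, c₁ = x * a * x⁻¹) ∧ ∃ y, c₂ = y * b * y⁻¹) hb hg
  refine ⟨x * x', y * y', ?_⟩
  rw [e]
  group

variable {J : List (Fin l)} {e : Fin l → ℤ} {ω : List (Fin l)} {n : ℕ} {r : Fin (n + 2) → Fin (n + 2) → ℕ}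
  (TB : TabB D l J e ω n r)
  {φ : Matrix.SpecialLinearGroup (Fin (n + 2)) K →* ↥(D.group K)} {s : Fin (n + 2) → Fin (n + 2) → K}
  (hs : ∀ a b, s a b ≠ 0)
  (hφ : ∀ a b (hab : a ≠ b) c, φ (Matrix.SpecialLinearGroup.transvection hab c) = xc hp (vec D l (r a b)) (s a b * c))
  {c₀ : Matrix.SpecialLinearGroup (Fin (n + 2)) K} (hc : OneClass hp K J φ c₀)

include hl hG hM TB hs hφ hc in
/-- **Two fixed classes.** -/
theorem tw_of_blk : Tw ↥(D.group K) := by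
  refine tw_of_pairs hp hl hG hM (J := {k | k ∈ J}) (a := φ c₀) (b := (φ c₀)⁻¹) fun v hv w hw => ?_
  obtain ⟨x, y, h1, h2⟩ := levi_pairs hp TB hs hφ hc hv hw
  refine ⟨_, _, h1, h2, ⟨φ x, by rw [map_mul, map_mul, map_inv]⟩, ⟨φ y, by rw [map_mul, map_mul, map_inv, map_inv]⟩⟩

end

section

variable (K : Type u) [Field K] [Finite K] (hq : 3 ≤ Nat.card K)

include hq in
/-- **`E_8(q)`, `q ≥ 3`.** -/
theorem tw_E8 : Tw ↥(chevE8.group K) := by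
  obtain ⟨φ, hφ⟩ := exists_phi8 K
  obtain ⟨c₀, ν, p, -, -, -, -, hc⟩ := exists_class8 K hq hφ
  exact tw_of_blk Cfsg.Agent.Nodes.KindE.isType8 (by norm_num) (Cfsg.Agent.S1054.result chevE8 (by simp))
    Cfsg.Agent.Nodes.ChevChart.irr8 tab8 (s := fun _ _ => ((-1 : ℤ) : K)) (fun _ _ => by simp) hφ hc

include hq in
/-- **`E_7(q)`, `q ≥ 3`.** -/
theorem tw_E7 : Tw ↥(chevE7.group K) := by
  obtain ⟨φ, hφ⟩ := exists_phi7 K
  obtain ⟨c₀, ν, p, -, -, -, -, hc⟩ := exists_class7 K hq hφ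
  exact tw_of_blk Cfsg.Agent.Nodes.KindE.isType7 (by norm_num) (Cfsg.Agent.S1054.result chevE7 (by simp))
    Cfsg.Agent.Nodes.ChevChart.irr7 tab7 (s := fun _ _ => ((-1 : ℤ) : K)) (fun _ _ => by simp) hφ hc

end

end Cfsg.Agent.H85.TC
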