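import Cfsg.Agent.H85.TC.Blk
import Cfsg.Agent.H140.TC.Fam

/-!
# Two fixed classes: rows for `E_7(q)`, `E_8(q)`, `q ≥ 3` (S4173)
-/

set_option autoImplicit false

namespace Cfsg.Agent.H85.TC

open Cfsg.Lie Cfsg.Agent.H140.TC

universe u

variable (K : Type u) [Field K] [Finite K] (hq : 3 ≤ Nat.card K)

include hq in
theorem tc_E8 : TC ↥(chevE8.group K) := tw_E8 K hq

include hq in
theorem tc_E7 : TC ↥(chevE7.group K) := tw_E7 K hq

end Cfsg.Agent.H85.TC
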